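import Cfsg.Agent.H9.A67.E4

/-! The alternating groups `A_6` and `A_7` in `PSp_4`. -/

set_option autoImplicit false
set_option linter.unusedSimpArgs false
set_option linter.unusedSectionVars false
set_option linter.unusedVariables false

namespace Cfsg.Agent.H9.A67

open Module Cfsg.Agent.H6.S4 Equiv
open Cfsg.Agent.H9.Sp (Cl)

universe u

variable {k V W : Type*} [Field k] [AddCommGroup V] [Module k V] [FiniteDimensional k V]
  [AddCommGroup W] [Module k W] [FiniteDimensional k W]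
  {B : V →ₗ[k] V →ₗ[k] k} {Q : QuadraticForm k W} {ι : W →ₗ[k] End k V}
  {G : Type u} [Group G] {P : Subgroup (End k V)ˣ} {π : P →* G} {p : ℕ}
  {g g' x : (End k V)ˣ} {a b c d e n o r u v w y z : W}
  {I : Type*} [DecidableEq I] {q : I → W} {σ τ : Perm I}

/-- `g` permutes the vertices according to `σ` -/
def Rl (ι : W →ₗ[k] End k V) (q : I → W) (g : (End k V)ˣ) (σ : Perm I) : Prop :=
  ∀ i j, wa ι g (q i - q j) = q (σ i) - q (σ j)

theorem Rl.mul (h : Cl B Q ι) (sg : IsSp B g) (sg' : IsSp B g') (h1 : Rl ι q g σ) (h2 : Rl ι q g' τ) :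
    Rl ι q (g * g') (σ * τ) := fun i j => by rw [wa_mul h sg sg', h2, h1]; rfl

theorem Rl.one (h : Cl B Q ι) : Rl ι q 1 1 := fun i j => wa_one h _

theorem Rl.neg1 (h : Cl B Q ι) : Rl ι q (-1) 1 := fun i j => by
  rw [wa_neg h (SpU B).one_mem, wa_one h]; rfl

theorem Rl.uniq (h : Cl B Q ι) (t3 : (3 : k) ≠ 0) (hq : Sx Q ι P o q) (h1 : Rl ι q g σ)
    (h2 : Rl ι q g τ) : σ = τ := by
  ext i
  by_contra ne
  obtain ⟨j, ij⟩ : ∃ j, i ≠ j := ⟨σ.symm (τ i), fun e => ne (by simp [e.symm ▸ (σ.apply_symm_apply _)])⟩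
  have e := congrArg (Orth.B Q (q (σ i) - q (σ j))) ((h1 i j).symm.trans (h2 i j))
  rw [hq.gram, hq.gram] at e
  simp only [ne, σ.injective.eq_iff, ij, ij.symm, if_true, if_false] at e
  have f4 := four_ne h
  have f2 := h.two
  split_ifs at e
  all_goals first
    | exact f4 (by linear_combination e) | exact t3 (by linear_combination e)
    | exact f2 (by linear_combination e) | exact one_ne_zero (α := k) (by linear_combination e)

theorem refl_swap (hq : Sx Q ι P o q) {i j : I} (ij : i ≠ j) (l m : I) :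
    q l - q m - Orth.B Q (q i - q j) (q l - q m) • (q i - q j) = q (swap i j l) - q (swap i j m) := by
  have key : ∀ l, q (swap i j l) =
      q l - ((if i = l then 1 else 0) - (if j = l then 1 else 0) : k) • (q i - q j) := fun l => by
    by_cases il : i = l
    · subst il; simp [ij.symm]
    by_cases jl : j = l
    · subst jl; simp [ij]
    simp [il, jl, swap_apply_of_ne_of_ne (Ne.symm il) (Ne.symm jl)]
  rw [key, key, hq.gram]; module

theorem rl_pair (h : Cl B Q ι) (hq : Sx Q ι P o q) (sg : IsSp B g) {i j l m : I} (ij : i ≠ j)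
    (lm : l ≠ m) (e : g.1 = ι (q i - q j) * ι (q l - q m)) : Rl ι q g (swap i j * swap l m) := by
  intro a b
  rw [wa_pair h sg e (by rw [(hq i j ij).un, (hq l m lm).un, one_mul]), Perm.mul_apply, Perm.mul_apply,
    ← refl_swap hq ij, ← refl_swap hq lm, (hq i j ij).un, (hq l m lm).un]
  generalize q a - q b = z, q i - q j = u, q l - q m = v
  simp only [map_sub, map_smul, smul_eq_mul]
  module

theorem exists_rl [Fintype I] (h : St B Q ι P π) (hq : Sx Q ι P o q) (σ : Perm I) :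
    (Perm.sign σ = 1 → ∃ g ∈ P, Rl ι q g σ) ∧
      (Perm.sign σ = -1 → ∀ i j, i ≠ j → ∃ g ∈ P, Rl ι q g (swap i j * σ)) := by
  induction σ using Perm.swap_induction_on with
  | one => exact ⟨fun _ => ⟨1, P.one_mem, Rl.one h.cl⟩, fun e => by simp at e⟩
  | swap_mul σ a b ab ih =>
    simp only [Perm.sign_mul, Perm.sign_swap ab, neg_mul, one_mul, neg_inj, neg_eq_iff_eq_neg]
    refine ⟨fun e => ih.2 e a b ab, fun e i j ij => ?_⟩
    obtain ⟨g, hg, r⟩ := ih.1 e
    obtain ⟨g', hg', e'⟩ := (hq i j ij).pair h.cl (hq a b ab)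
    exact ⟨g' * g, P.mul_mem hg' hg, mul_assoc (swap i j) _ _ ▸
      (rl_pair h.cl hq (h.sp _ hg') ij ab e').mul h.cl (h.sp _ hg') (h.sp _ hg) r⟩

theorem iso [Fintype I] (h : St B Q ι P π) (t3 : (3 : k) ≠ 0) (hq : Sx Q ι P o q)
    (hs : ∀ z, (∀ i j, Orth.B Q (q i - q j) z = 0) → z = 0) (hg : X3 P g)
    (hX : ∀ x, X3 P x → ∃ i j l, i ≠ j ∧ j ≠ l ∧ x.1 = ι (q i - q j) * ι (q j - q l)) :
    Nonempty (G ≃* alternatingGroup I) := by
  have cl := h.cl
  have key := h.ind (X := {x | X3 P x}) (fun x hx => hx.1) (fun g hg x hx => X3.conj hx hg) hg hg.2.2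
    (hg.ne_neg cl) (fun g => ∃ σ : alternatingGroup I, Rl ι q g σ) ⟨1, Rl.one cl⟩ ⟨1, Rl.neg1 cl⟩
    (fun a ha b hb ⟨σ, h1⟩ ⟨τ, h2⟩ => ⟨σ * τ, h1.mul cl (h.sp a ha) (h.sp b hb) h2⟩) fun x hx => by
      obtain ⟨i, j, l, ij, jl, e⟩ := hX x hx
      exact ⟨⟨_, by simp [ij, jl]⟩, rl_pair cl hq (h.sp x hx.1) ij jl e⟩
  choose f hf using key
  let φ : P →* alternatingGroup I := MonoidHom.mk' (fun g => f g.1 g.2) fun a b => Subtype.ext
    ((hf _ (a * b).2).uniq cl t3 hq ((hf _ a.2).mul cl (h.sp _ a.2) (h.sp _ b.2) (hf _ b.2)))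
  have hφ : ∀ g : P, Rl ι q g.1 (φ g) := fun g => hf g.1 g.2
  have surj : Function.Surjective φ := fun σ => by
    obtain ⟨g, hg, r⟩ := (exists_rl h hq σ.1).1 (Perm.mem_alternatingGroup.1 σ.2)
    exact ⟨⟨g, hg⟩, Subtype.ext ((hφ ⟨g, hg⟩).uniq cl t3 hq r)⟩
  have ker : π.ker = φ.ker := by
    ext g
    rw [MonoidHom.mem_ker, MonoidHom.mem_ker, h.ker]
    have sg := h.sp _ g.2
    constructor
    · rintro (e | e) <;> refine Subtype.ext ((hφ g).uniq cl t3 hq ?_) <;> rw [e]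
      exacts [Rl.one cl, Rl.neg1 cl]
    · intro e
      have r := hφ g
      rw [e] at r
      refine wa_ker cl sg fun z => sub_eq_zero.1 (hs _ fun i j => ?_)
      rw [map_sub, ← b_wa cl sg _ z, r i j]
      exact sub_self _
  exact ⟨((QuotientGroup.quotientKerEquivOfSurjective π h.surj).symm.trans
    (QuotientGroup.quotientMulEquivOfEq ker)).trans (QuotientGroup.quotientKerEquivOfSurjective φ surj)⟩

/-- combinations of products of `n` vectors -/
inductive Wd (K : Subfield k) (ι : W →ₗ[k] End k V) (D : Set W) : ℕ → End k V → Prop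
  | one : Wd K ι D 0 1
  | zero (n : ℕ) : Wd K ι D n 0
  | mul {n : ℕ} {u : W} {X : End k V} : u ∈ D → Wd K ι D n X → Wd K ι D (n + 1) (ι u * X)
  | add {n : ℕ} {X Y : End k V} : Wd K ι D n X → Wd K ι D n Y → Wd K ι D n (X + Y)
  | smul {n : ℕ} {c : k} {X : End k V} : c ∈ K → Wd K ι D n X → Wd K ι D n (c • X)

section

variable {K : Subfield k} {D : Set W} {N M : ℕ} {X Z : End k V}

theorem Wd.mul' (h1 : Wd K ι D N X) (h2 : Wd K ι D M Z) : Wd K ι D (M + N) (X * Z) := by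
  induction h1 with
  | one => simpa using h2
  | zero n => simpa using Wd.zero _
  | mul hu _ ih => rw [mul_assoc]; exact ih.mul hu
  | add _ _ ih ih' => rw [add_mul]; exact ih.add ih'
  | smul hc _ ih => rw [smul_mul_assoc]; exact ih.smul hc

theorem Wd.mv (h : Cl B Q ι) (hD : ∀ u ∈ D, ∀ v ∈ D, Orth.B Q u v ∈ K) (hu : u ∈ D)
    (h1 : Wd K ι D N X) : ∃ Z, Wd K ι D (N - 1) Z ∧ (N = 0 → Z = 0) ∧
      ι u * X = (-1 : k) ^ N • (X * ι u) + Z := by
  induction h1 with
  | one => exact ⟨0, Wd.zero _, fun _ => rfl, by simp⟩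
  | zero n => exact ⟨0, Wd.zero _, fun _ => rfl, by simp⟩
  | @mul n v X hv h1 ih =>
    obtain ⟨Z, z1, z2, z3⟩ := ih
    refine ⟨Orth.B Q u v • X + (-1 : k) • (ι v * Z), (h1.smul (hD u hu v hv)).add
      (Wd.smul (K.neg_mem K.one_mem) ?_), by simp, ?_⟩
    · rcases n with _ | n
      · simpa [z2] using Wd.zero _
      · exact z1.mul hv
    · rw [antim h, z3]; simp only [nc k V, pow_succ]; module
  | add _ _ ih ih' =>
    obtain ⟨Z, z1, z2, z3⟩ := ih
    obtain ⟨Z', y1, y2, y3⟩ := ih'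
    exact ⟨Z + Z', z1.add y1, fun e => by simp [z2 e, y2 e], by
      simp only [nc k V, z3, y3]; module⟩
  | @smul n c X hc _ ih =>
    obtain ⟨Z, z1, z2, z3⟩ := ih
    exact ⟨c • Z, z1.smul hc, fun e => by simp [z2 e], by simp only [nc k V, z3]; module⟩

theorem Wd.tr (h : Cl B Q ι) (hD : ∀ u ∈ D, ∀ v ∈ D, Orth.B Q u v ∈ K) (h1 : Wd K ι D N X)
    (hN : Even N) : LinearMap.trace k V X ∈ K := by
  induction N using Nat.strong_induction_on generalizing X with
  | _ N ih =>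
  induction h1 with
  | one => simp
  | zero n => simp
  | @mul n v X hv h1 _ =>
    obtain ⟨Z, z1, -, z3⟩ := h1.mv h hD hv
    have on : Odd n := Nat.not_even_iff_odd.1 (Nat.even_add_one.1 hN)
    have a := ih (n - 1) (by omega) z1 (Nat.Odd.sub_odd on odd_one)
    have b := congrArg (LinearMap.trace k V) z3
    rw [on.neg_one_pow, map_add, map_smul, LinearMap.trace_mul_comm k X, smul_eq_mul] at b
    have two := h.two
    rw [show LinearMap.trace k V (ι v * X) = LinearMap.trace k V Z / 2 by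
      field_simp; linear_combination b]
    exact K.div_mem a (by simp)
  | add _ _ i1 i2 => rw [map_add]; exact K.add_mem (i1 ih hN) (i2 ih hN)
  | smul hc _ i1 => rw [map_smul]; exact K.mul_mem hc (i1 ih hN)

end

variable [Fact p.Prime] [CharP k p] [IsAlgClosed k]

theorem traces (h : St B Q ι P π) (hq : Sx Q ι P o q) (hg : X3 P g)
    (hX : ∀ x, X3 P x → ∃ i j l, i ≠ j ∧ j ≠ l ∧ x.1 = ι (q i - q j) * ι (q j - q l)) :
    ∀ g ∈ P, LinearMap.trace k V g.1 ^ p = LinearMap.trace k V g.1 := by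
  let K := (frobenius k p).eqLocusField (RingHom.id k)
  let D : Set W := {u | ∃ i j, u = q i - q j}
  have hD : ∀ i j, q i - q j ∈ D := fun i j => ⟨i, j, rfl⟩
  have key := h.ind (X := {x | X3 P x}) (fun x hx => hx.1) (fun g hg x hx => X3.conj hx hg) hg hg.2.2
    (hg.ne_neg h.cl) (fun g => ∃ n, Even n ∧ Wd K ι D n g.1) ⟨0, Even.zero, Wd.one⟩
    ⟨0, Even.zero, by simpa using (Wd.one (K := K) (ι := ι) (D := D)).smul (K.neg_mem K.one_mem)⟩
    (fun a ha b hb ⟨n, h1, h2⟩ ⟨m, h3, h4⟩ => ⟨m + n, h3.add h1, h2.mul' h4⟩) fun x hx => by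
      obtain ⟨i, j, l, -, -, e⟩ := hX x hx
      exact ⟨2, even_two, by
        simpa [e, -map_sub] using
          ((Wd.one (K := K) (ι := ι) (D := D)).mul (hD j l)).mul (hD i j)⟩
  intro g hg
  obtain ⟨n, h1, h2⟩ := key g hg
  refine h2.tr h.cl ?_ h1
  rintro _ ⟨i, j, rfl⟩ _ ⟨l, m, rfl⟩
  have : ∀ i j : I, (if i = j then 1 else 0 : k) ∈ K := fun i j => by
    split_ifs; exacts [K.one_mem, K.zero_mem]
  rw [hq.gram]
  exact K.add_mem (K.sub_mem (K.sub_mem (this _ _) (this _ _)) (this _ _)) (this _ _)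

/-- the case of a natural pair of quadratic elements of order three -/
theorem alt (h : S2 p B Q ι P π) (h3 : Pair3 P) (hn : ∃ g g', X3 P g ∧ X3 P g' ∧
      T (g * g') * T (g * g') = T (g * g') + 1 ∧ ∀ c : k, T (g * g') ≠ c • 1) :
    5 ≤ p ∧ (∀ g ∈ P, LinearMap.trace k V g.1 ^ p = LinearMap.trace k V g.1) ∧
      (Nonempty (G ≃* alternatingGroup (Fin 6)) ∨
        p = 7 ∧ Nonempty (G ≃* alternatingGroup (Fin 7))) := by
  obtain ⟨g, g', hg, hg', e, n⟩ := hn
  obtain ⟨o, q, hq⟩ := step1 h hg hg' e n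
  obtain ⟨r, hr⟩ := step3 h h3 hg hq
  have hs := hq.cons h.toSt hr
  generalize (Fin.cons r q : Fin 6 → W) = s at hs
  have p3 := six3 h hs
  have t3 : (3 : k) ≠ 0 := fun e => p3 (eq_of_cast (k := k) Nat.prime_three (by exact_mod_cast e))
  refine ⟨(h.un.resolve_right fun e => p3 e.1).1, ?_⟩
  by_cases hm : ∃ r, ∀ l, Ph Q ι P o (r - s l)
  · obtain ⟨r, hr⟩ := hm
    have ht := hs.cons h.toSt hr
    obtain ⟨s7, hm⟩ := seven h.cl ht
    have hX := fun x => cyc (x := x) h h3 ht (Fin.succ_injective 6) hm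
    exact ⟨traces h.toSt ht hg hX, Or.inr ⟨eq_of_cast (k := k) Nat.prime_seven (by exact_mod_cast s7),
      iso h.toSt t3 ht (fun z hz => span6 h.cl t3 hs fun i j => hz i.succ j.succ) hg hX⟩⟩
  · have hX := fun x => cyc (x := x) h h3 hs Function.injective_id hm
    exact ⟨traces h.toSt hs hg hX, Or.inl (iso h.toSt t3 hs (fun z => span6 h.cl t3 hs) hg hX)⟩

end Cfsg.Agent.H9.A67
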