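import Cfsg.Agent.H6.S4.C1

/-! Pairs of quadratic elements of order three in `Sp_4`. -/

set_option autoImplicit false
set_option linter.unusedSimpArgs false
set_option linter.unusedSectionVars false
set_option linter.unusedVariables false

namespace Cfsg.Agent.H9.A67

open Module Cfsg.Agent.H6.S4
open Cfsg.Agent.H9.Sp (Cl)

universe u

variable {k V W : Type*} [Field k] [AddCommGroup V] [Module k V] [FiniteDimensional k V]
  [AddCommGroup W] [Module k W] [FiniteDimensional k W]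
  {B : V →ₗ[k] V →ₗ[k] k} {Q : QuadraticForm k W} {ι : W →ₗ[k] End k V}
  {G : Type u} [Group G] {P : Subgroup (End k V)ˣ} {π : P →* G} {p : ℕ}
  {g g' x : (End k V)ˣ} {a b c d e w y z : W}

/-- the determinant of the pairing of two planes -/
def om (Q : QuadraticForm k W) (a b c d : W) : k :=
  Orth.B Q a c * Orth.B Q b d - Orth.B Q a d * Orth.B Q b c

/-- the norm of the pairing of two planes -/
def SS (Q : QuadraticForm k W) (a b c d : W) : k :=
  Orth.B Q a c ^ 2 + Orth.B Q a c * Orth.B Q a d + Orth.B Q a d ^ 2 + Orth.B Q b c ^ 2 +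
    Orth.B Q b c * Orth.B Q b d + Orth.B Q b d ^ 2 + Orth.B Q a c * Orth.B Q b c +
    Orth.B Q a d * Orth.B Q b d + Orth.B Q b c * Orth.B Q a d

theorem tr2 (h : Cl B Q ι) (a b : W) : LinearMap.trace k V (ι a * ι b) = 2 * Orth.B Q a b := by
  have e := congrArg (LinearMap.trace k V) (anti' h a b)
  rw [map_sub, LinearMap.trace_mul_comm k (ι b)] at e
  simp only [map_smul, LinearMap.trace_one, h.dimV, smul_eq_mul] at e
  apply mul_left_cancel₀ h.two
  push_cast at e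
  linear_combination e

theorem tr4 (h : Cl B Q ι) (a b c d : W) : LinearMap.trace k V (ι a * (ι b * (ι c * ι d))) =
    Orth.B Q a b * Orth.B Q c d - Orth.B Q a c * Orth.B Q b d + Orth.B Q a d * Orth.B Q b c := by
  have e : ι a * (ι b * (ι c * ι d)) = Orth.B Q a b • (ι c * ι d) - Orth.B Q a c • (ι b * ι d) +
      Orth.B Q a d • (ι b * ι c) - (ι b * (ι c * ι d)) * ι a := by
    simp only [nc k V, antim h a b, antim h a c, anti' h a d]; module
  have := congrArg (LinearMap.trace k V) e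
  simp only [map_sub, map_add, map_smul, tr2 h, smul_eq_mul] at this
  rw [LinearMap.trace_mul_comm k (ι b * (ι c * ι d))] at this
  apply mul_left_cancel₀ h.two
  linear_combination this

theorem alt4 (h : Cl B Q ι) (a b c : W) (α β γ : k) (hd : d = α • a + β • b + γ • c) :
    ∃ s : k, ι a * (ι b * (ι c * ι d)) + ι d * (ι c * (ι b * ι a)) = s • 1 := by
  refine ⟨α * (Orth.B Q a b * Orth.B Q a c - Orth.B Q a c * Orth.B Q a b + Q a * Orth.B Q b c) +
    β * (Orth.B Q a b * Orth.B Q b c - Orth.B Q a c * Q b) + γ * (Orth.B Q a b * Q c), ?_⟩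
  simp only [hd, map_add, map_smul, nc k V, antim h b a, antim h c a, antim h c b, anti' h b a,
    anti' h c a, anti' h c b, sqm h, sq' h, Orth.B_comm Q b a, Orth.B_comm Q c a, Orth.B_comm Q c b]
  module

theorem T4 (p1 : Pr B Q ι g a b (-1)) (p2 : Pr B Q ι g' c d (-1)) :
    T (g * g') = ι a * (ι b * (ι c * ι d)) + ι d * (ι c * (ι b * ι a)) := by
  rw [T]; simp only [nc k V, p1.e, p2.e, p1.inv.e, p2.inv.e]

theorem T_scal (p1 : Pr B Q ι g a b (-1)) (p2 : Pr B Q ι g' c d (-1)) {s : k}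
    (e : T (g * g') = s • 1) : om Q a b c d = 1 - 2 * s := by
  have h := p1.cl
  have := congrArg (LinearMap.trace k V) e
  rw [T4 p1 p2, map_add, tr4 h, tr4 h] at this
  simp only [map_smul, LinearMap.trace_one, h.dimV, smul_eq_mul, p1.ab, p2.ab, p1.inv.ab, p2.inv.ab,
    Orth.B_comm Q d, Orth.B_comm Q c a, Orth.B_comm Q c b] at this
  apply mul_left_cancel₀ h.two
  push_cast at this
  rw [om]
  linear_combination -this

theorem T_sqr (p1 : Pr B Q ι g a b (-1)) (p2 : Pr B Q ι g' c d (-1)) :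
    T (g * g') * T (g * g') = (1 - om Q a b c d) • T (g * g') + (2 - SS Q a b c d) • 1 := by
  have h := p1.cl
  simp only [T4 p1 p2, om, SS, nc k V, antim h b a, antim h c a, antim h c b, antim h d a,
    antim h d b, antim h d c, anti' h b a, anti' h c a, anti' h c b, anti' h d a, anti' h d b,
    anti' h d c, sqm h, sq' h, Orth.B_comm Q b a, Orth.B_comm Q c a, Orth.B_comm Q c b,
    Orth.B_comm Q d a, Orth.B_comm Q d b, Orth.B_comm Q d c, p1.qa, p1.qb, p2.qa, p2.qb, p1.ab, p2.ab,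
    one_smul]
  module

theorem T_nat (p1 : Pr B Q ι g a b (-1)) (p2 : Pr B Q ι g' c d (-1))
    (e : T (g * g') * T (g * g') = T (g * g') + 1) (n : ∀ s : k, T (g * g') ≠ s • 1) :
    om Q a b c d = 0 ∧ SS Q a b c d = 1 := by
  have e2 := T_sqr p1 p2
  rw [e] at e2
  have e3 : om Q a b c d • T (g * g') = (1 - SS Q a b c d) • 1 := by
    linear_combination (norm := module) e2
  have o : om Q a b c d = 0 := by
    by_contra o
    exact n ((om Q a b c d)⁻¹ * (1 - SS Q a b c d)) (by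
      rw [mul_smul, ← e3, smul_smul, inv_mul_cancel₀ o, one_smul])
  rw [o] at e3
  have := sc' p1.cl (a := 0) (by rw [← e3]; simp)
  exact ⟨o, by linear_combination this⟩

theorem T_dep (p1 : Pr B Q ι g a b (-1)) (p2 : Pr B Q ι g' c d (-1)) (y0 : y ≠ 0) (h1 : y ∈ Y ι g)
    (h2 : y ∈ Y ι g') : ∃ s : k, T (g * g') = s • 1 := by
  have h := p1.cl
  obtain ⟨α, β, e1⟩ := p1.mem_Y.1 h1
  obtain ⟨γ, δ, e2⟩ := p2.mem_Y.1 h2
  rw [T4 p1 p2]
  by_cases δ0 : δ = 0
  · have γ0 : γ ≠ 0 := by rintro rfl; simp [e2, δ0] at y0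
    obtain ⟨s, hs⟩ := alt4 h a b d (d := c) (γ⁻¹ * α) (γ⁻¹ * β) 0 (by
      apply smul_right_injective _ γ0
      simp only [smul_add, smul_smul, mul_inv_cancel_left₀ γ0, mul_zero, zero_smul]
      rw [δ0] at e2
      linear_combination (norm := module) e1 - e2)
    refine ⟨Orth.B Q c d * Orth.B Q a b - s, ?_⟩
    rw [sub_smul, ← hs]
    simp only [nc k V, anti' h d c, antim h d c, anti' h b a, Orth.B_comm Q d c, Orth.B_comm Q b a]
    module
  · exact alt4 h a b c (δ⁻¹ * α) (δ⁻¹ * β) (δ⁻¹ * -γ) (by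
      apply smul_right_injective _ δ0
      simp only [smul_add, smul_smul, mul_inv_cancel_left₀ δ0]
      linear_combination (norm := module) e1 - e2)

theorem x3 (hg : g ∈ P) (p1 : Pr B Q ι g a b (-1)) : X3 P g := ⟨hg, p1.hT, p1.ne.1⟩

variable [Fact p.Prime] [CharP k p] [IsAlgClosed k]

theorem comm3 (h : S2 p B Q ι P π) (hp : p = 3) (hg : g ∈ P) (hg' : g' ∈ P)
    (p1 : Pr B Q ι g a b (-1)) (p2 : Pr B Q ι g' c d (-1)) (e : g * g' = g' * g) :
    Y ι g' = Y ι g := by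
  have e3 : (-1 : k) = 2 := by linear_combination -three_eq (k := k) hp
  rcases h.h9 hp hg hg' (un_of_T2 (e3 ▸ p1.hT)) (un_of_T2 (e3 ▸ p2.hT)) p1.ne.1 e with e | e | e
  · exact (p2.ne.1 e).elim
  · rw [e]
  · rw [e, p1.Y_inv]

theorem perp3 (h : S2 p B Q ι P π) (hp : p = 3) (hg : g ∈ P) (hg' : g' ∈ P)
    (p1 : Pr B Q ι g a b (-1)) (p2 : Pr B Q ι g' c d (-1)) (e1 : Orth.B Q a c = 0)
    (e2 : Orth.B Q a d = 0) (e3 : Orth.B Q b c = 0) (e4 : Orth.B Q b d = 0) : False := by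
  have cl := p1.cl
  have := comm3 h hp hg hg' p1 p2 (Units.ext (by
    simp only [nc k V, p1.e, p2.e, antim cl b c, anti' cl b d, antim cl a c, antim cl a d, e1, e2, e3,
      e4, zero_smul, zero_sub, neg_neg]))
  obtain ⟨α, β, e⟩ := p1.mem_Y.1 (this ▸ p2.a_mem)
  have a1 : Orth.B Q c c = 0 := by nth_rw 1 [e]; simp [e1, e3]
  rw [Orth.B_self, p2.qa, mul_one] at a1
  exact cl.two a1

theorem pr (h : S2 p B Q ι P π) (h3 : Pair3 P) (hg : g ∈ P) (hg' : g' ∈ P)
    (p1 : Pr B Q ι g a b (-1)) (p2 : Pr B Q ι g' c d (-1)) :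
    Y ι g' = Y ι g ∨
    (Orth.B Q a c = 0 ∧ Orth.B Q a d = 0 ∧ Orth.B Q b c = 0 ∧ Orth.B Q b d = 0) ∨
    (om Q a b c d ^ 2 = 1 ∧ ∃ y, y ≠ 0 ∧ y ∈ Y ι g ∧ y ∈ Y ι g') ∨
    (om Q a b c d = 0 ∧ SS Q a b c d = 1 ∧ ∀ y ∈ Y ι g, y ∈ Y ι g' → y = 0) := by
  rcases h3 g g' (x3 hg p1) (x3 hg' p2) with e | e | e | ⟨e, n⟩
  · by_cases hp : p = 3
    · exact Or.inl (comm3 h hp hg hg' p1 p2 e)
    refine (p1.comm' (fun e' => hp (eq_of_cast (k := k) Nat.prime_three (by
      push_cast; linear_combination -e'))) p2 e).imp_right fun e' => Or.inl ?_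
    have f := fun u hu v hv => Orth.mem_perp'.1 (e' (x := u) hu) v hv
    exact ⟨f _ p1.a_mem _ p2.a_mem, f _ p1.a_mem _ p2.b_mem, f _ p1.b_mem _ p2.a_mem,
      f _ p1.b_mem _ p2.b_mem⟩
  · have e' : T (g * g') = (0 : k) • 1 := by simp [e]
    exact Or.inr (Or.inr (Or.inl ⟨by rw [T_scal p1 p2 e']; ring, p1.meet p2 e'⟩))
  · have e' : T (g * g') = (1 : k) • 1 := by simp [e]
    exact Or.inr (Or.inr (Or.inl ⟨by rw [T_scal p1 p2 e']; ring, p1.meet p2 e'⟩))
  · refine Or.inr (Or.inr (Or.inr ⟨(T_nat p1 p2 e n).1, (T_nat p1 p2 e n).2, fun y h1 h2 => ?_⟩))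
    by_contra y0
    obtain ⟨s, hs⟩ := T_dep p1 p2 y0 h1 h2
    exact n s hs

/-- two elements with a common first vector -/
theorem share (h : S2 p B Q ι P π) (h3 : Pair3 P) (hg : g ∈ P) (hg' : g' ∈ P)
    (p1 : Pr B Q ι g y e (-1)) (p2 : Pr B Q ι g' y w (-1)) :
    Y ι g' = Y ι g ∨ Orth.B Q e w = 0 ∨ Orth.B Q e w = 1 := by
  have two := p1.cl.two
  rcases pr h h3 hg hg' p1 p2 with f | ⟨f, -⟩ | ⟨f, -⟩ | ⟨-, -, f⟩
  · exact Or.inl f
  · rw [Orth.B_self, p1.qa, mul_one] at f; exact (two f).elim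
  · rw [om, Orth.B_self, p1.qa, p2.ab, p1.inv.ab] at f
    have : 4 * (Orth.B Q e w * (Orth.B Q e w - 1)) = 0 := by linear_combination f
    rcases mul_eq_zero.1 ((mul_eq_zero.1 this).resolve_left (four_ne p1.cl)) with f | f
    exacts [Or.inr (Or.inl f), Or.inr (Or.inr (sub_eq_zero.1 f))]
  · exact (p1.a0 (f y p1.a_mem p2.a_mem)).elim

end Cfsg.Agent.H9.A67
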