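import Cfsg.Agent.H9.A67.E1

/-! Roots and simplices attached to quadratic elements of order three in `Sp_4`. -/

set_option autoImplicit false
set_option linter.unusedSimpArgs false
set_option linter.unusedSectionVars false
set_option linter.unusedVariables false

namespace Cfsg.Agent.H9.A67

open Module Cfsg.Agent.H6.S4
open Cfsg.Agent.H9.Sp (Cl)

universe u

variable {k V W : Type*} [Field k] [AddCommGroup V] [Module k V] [FiniteDimensional k V]
  [AddCommGroup W] [Module k W] [FiniteDimensional k W]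
  {B : V →ₗ[k] V →ₗ[k] k} {Q : QuadraticForm k W} {ι : W →ₗ[k] End k V}
  {G : Type u} [Group G] {P : Subgroup (End k V)ˣ} {π : P →* G} {p : ℕ}
  {g g' x : (End k V)ˣ} {a b c d e n o r u v w y z : W} {I : Type*} {q : I → W}

/-- the roots in the class of `o` -/
def Ph (Q : QuadraticForm k W) (ι : W →ₗ[k] End k V) (P : Subgroup (End k V)ˣ) (o u : W) : Prop :=
  Q o = 1 ∧ Q u = 1 ∧ ∃ g ∈ P, g.1 = ι o * ι u

theorem Ph.un (hu : Ph Q ι P o u) : Q u = 1 := hu.2.1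

theorem Ph.self (h : Cl B Q ι) (ho : Q o = 1) : Ph Q ι P o o :=
  ⟨ho, ho, 1, P.one_mem, by simp [sq' h, ho]⟩

theorem Ph.pair (h : Cl B Q ι) (hu : Ph Q ι P o u) (hv : Ph Q ι P o v) :
    ∃ g ∈ P, g.1 = ι u * ι v :=
  let ⟨ho, a, g, hg, e⟩ := hu
  let ⟨_, b, g', hg', e'⟩ := hv
  ⟨g⁻¹ * g', P.mul_mem (P.inv_mem hg) hg', by
    simp only [nc k V, inv_pair h e (by rw [ho, a, one_mul]), e', sqm h, ho, one_smul]⟩

theorem Ph.ext (h : Cl B Q ι) (hu : Ph Q ι P o u) (hv : Q v = 1) (hg : g ∈ P)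
    (e : g.1 = ι u * ι v) : Ph Q ι P o v :=
  let ⟨ho, a, g', hg', e'⟩ := hu
  ⟨ho, hv, g' * g, P.mul_mem hg' hg, by simp only [nc k V, e, e', sqm h, a, one_smul]⟩

theorem Ph.ext' (h : Cl B Q ι) (hv : Ph Q ι P o v) (hu : Q u = 1) (hg : g ∈ P)
    (e : g.1 = ι u * ι v) : Ph Q ι P o u :=
  hv.ext h hu (P.inv_mem hg) (inv_pair h e (by rw [hu, hv.un, one_mul]))

theorem Ph.neg (h : St B Q ι P π) (hu : Ph Q ι P o u) : Ph Q ι P o (-u) :=
  let ⟨ho, a, g, hg, e⟩ := hu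
  ⟨ho, by simpa using a, -g, h.neg hg, by simp [e]⟩

theorem Ph.symm (h : St B Q ι P π) (hu : Ph Q ι P o (u - v)) : Ph Q ι P o (v - u) :=
  neg_sub u v ▸ hu.neg h

theorem Ph.refl (h : Cl B Q ι) (hu : Ph Q ι P o u) (hv : Ph Q ι P o v) :
    Ph Q ι P o (Orth.B Q u v • u - v) := by
  obtain ⟨g, hg, e⟩ := hv.pair h hu
  refine hu.ext h ?_ hg ?_
  · rw [Orth.Q_sub, Orth.Q_smul, hu.un, hv.un, map_smul, LinearMap.smul_apply, smul_eq_mul]; ring
  · rw [e, anti' h v u]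
    simp only [map_sub, map_smul, nc k V, sq' h, hu.un, Orth.B_comm Q v u, one_smul]

theorem Ph.sub (h : Cl B Q ι) (hu : Ph Q ι P o u) (hv : Ph Q ι P o v) (e : Orth.B Q u v = 1) :
    Ph Q ι P o (u - v) := by simpa [e] using hu.refl h hv

theorem Ph.add (h : St B Q ι P π) (hu : Ph Q ι P o u) (hv : Ph Q ι P o v) (e : Orth.B Q u v = -1) :
    Ph Q ι P o (u + v) := by simpa using hu.sub h.cl (hv.neg h) (by simp [e])

theorem Ph.pr (h : St B Q ι P π) (hu : Ph Q ι P o u) (hv : Ph Q ι P o v) (e : Orth.B Q u v = -1)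
    (ne : u ≠ v) : ∃ g ∈ P, Pr B Q ι g u v (-1) := by
  obtain ⟨g, hg, e'⟩ := hu.pair h.cl hv
  refine ⟨g, hg, h.cl, h.sp g hg, hu.un, hv.un, e, e', fun c hc => ?_⟩
  have a := hv.un
  rw [hc, Orth.Q_smul, hu.un, mul_one] at a
  rw [hc, map_smul, Orth.B_self, hu.un, smul_eq_mul] at e
  rcases mul_self_eq_one_iff.1 a with rfl | rfl
  · exact ne (by simp [hc])
  · exact one_ne_zero (α := k) (by linear_combination -e)

theorem prneg {θ : k} (h : Pr B Q ι g a b θ) : Pr B Q ι g (-a) (-b) θ :=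
  ⟨h.cl, h.sp, by simpa using h.qa, by simpa using h.qb, by simpa using h.ab, by simpa using h.e,
    fun c e => h.ind c (by simpa using e)⟩

theorem prconj {θ : k} (h : Pr B Q ι g a b θ) (sx : IsSp B x) :
    (x * g * x⁻¹).1 = ι (wa ι x a) * ι (wa ι x b) := by
  simp only [ι_wa h.cl sx, nc k V, h.e]

theorem pol (a b c d : W) :
    Orth.B Q (a - b) (c - d) = Q (a - d) + Q (b - c) - Q (a - c) - Q (b - d) := by
  simp only [Orth.Q_sub, map_sub, LinearMap.sub_apply]; ring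

/-- simplices: all differences are roots -/
def Sx (Q : QuadraticForm k W) (ι : W →ₗ[k] End k V) (P : Subgroup (End k V)ˣ) (o : W)
    (q : I → W) : Prop := ∀ i j, i ≠ j → Ph Q ι P o (q i - q j)

theorem Sx.qq [DecidableEq I] (hq : Sx Q ι P o q) (i j : I) :
    Q (q i - q j) = if i = j then 0 else 1 := by
  split_ifs with e
  · simp [e]
  · exact (hq i j e).un

theorem Sx.gram [DecidableEq I] (hq : Sx Q ι P o q) (i j l m : I) :
    Orth.B Q (q i - q j) (q l - q m) = (if i = l then 1 else 0) - (if i = m then 1 else 0) -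
      (if j = l then 1 else 0) + (if j = m then 1 else 0) := by
  rw [pol]; simp only [hq.qq]; split_ifs <;> ring

theorem Sx.comp {J : Type*} (hq : Sx Q ι P o q) {f : J → I} (hf : Function.Injective f) :
    Sx Q ι P o (q ∘ f) := fun i j e => hq _ _ (hf.ne e)

theorem Sx.cons {N : ℕ} {q : Fin N → W} (h : St B Q ι P π) (hq : Sx Q ι P o q)
    (hr : ∀ l, Ph Q ι P o (r - q l)) : Sx Q ι P o (Fin.cons r q : Fin (N + 1) → W) := by
  intro i j e
  induction i using Fin.cases <;> induction j using Fin.cases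
  · exact (e rfl).elim
  · exact hr _
  · exact (hr _).symm h
  · exact hq _ _ fun e' => e (congrArg Fin.succ e')

theorem Sx.tc [DecidableEq I] (h : St B Q ι P π) (hq : Sx Q ι P o q) {i j l m : I} (ij : i ≠ j)
    (il : i ≠ l) (jl : j ≠ l) (im : i ≠ m) (jm : j ≠ m) (lm : l ≠ m) :
    ∃ g ∈ P, Pr B Q ι g (q i - q j) (q j - q l) (-1) :=
  (hq i j ij).pr h (hq j l jl) (by rw [hq.gram]; simp [ij, il, jl]) fun e => by
    have := congrArg (Orth.B Q (q i - q m)) e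
    rw [hq.gram, hq.gram] at this
    simp [ij, il, im.symm, jm.symm, lm.symm] at this

theorem four5 : ∀ i j l : Fin 5, ∃ m, i ≠ m ∧ j ≠ m ∧ l ≠ m := by decide

theorem Sx.tc5 {q : Fin 5 → W} (h : St B Q ι P π) (hq : Sx Q ι P o q) {i j l : Fin 5} (ij : i ≠ j)
    (il : i ≠ l) (jl : j ≠ l) : ∃ g ∈ P, Pr B Q ι g (q i - q j) (q j - q l) (-1) :=
  let ⟨m, a, b, c⟩ := four5 i j l
  hq.tc h ij il jl a b c

theorem dep6 (h : Cl B Q ι) (v0 v1 v2 v3 v4 v5 : W) : ∃ c0 c1 c2 c3 c4 c5 : k,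
    ¬ (c0 = 0 ∧ c1 = 0 ∧ c2 = 0 ∧ c3 = 0 ∧ c4 = 0 ∧ c5 = 0) ∧
    c0 • v0 + c1 • v1 + c2 • v2 + c3 • v3 + c4 • v4 + c5 • v5 = 0 := by
  have : ¬ LinearIndependent k ![v0, v1, v2, v3, v4, v5] := fun hl => by
    have := hl.fintype_card_le_finrank
    simp [h.dim] at this
  obtain ⟨c, e, i, hi⟩ := Fintype.not_linearIndependent_iff.1 this
  refine ⟨c 0, c 1, c 2, c 3, c 4, c 5, fun ⟨a0, a1, a2, a3, a4, a5⟩ => hi ?_, ?_⟩
  · fin_cases i <;> assumption
  · simpa [Fin.sum_univ_six] using e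

theorem alg2 {a b c d : k} (e : a * d - b * c = 0)
    (s : a ^ 2 + a * b + b ^ 2 + c ^ 2 + c * d + d ^ 2 + a * c + b * d + c * b = 1)
    (z : a ^ 2 + a * b + b ^ 2 = 0) : a = 0 ∧ b = 0 ∧ c ^ 2 + c * d + d ^ 2 = 1 := by
  have e1 : (a * c + b * d + c * b) ^ 2 = 0 := by
    linear_combination (c ^ 2 + c * d + d ^ 2) * z - (a * d + a * c + b * d) * e
  have e2 := pow_eq_zero_iff two_ne_zero |>.1 e1
  have e3 : c ^ 2 + c * d + d ^ 2 = 1 := by linear_combination s - z - e2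
  refine ⟨pow_eq_zero_iff two_ne_zero |>.1 ?_, pow_eq_zero_iff two_ne_zero |>.1 ?_, e3⟩
  · linear_combination -a ^ 2 * e3 + c ^ 2 * z + (a * c + a * d + b * c) * e
  · linear_combination -b ^ 2 * e3 + d ^ 2 * z - (b * c + b * d + a * d) * e

theorem comb0 : ∀ s : Fin 5 → Bool, (∃ i j, s i ≠ s j) →
    (∃ i, ∀ l, l ≠ i → s l ≠ s i) ∨ ∃ i j, i ≠ j ∧ s j = s i ∧ ∀ l, l ≠ i → l ≠ j → s l ≠ s i := by
  decide

theorem comb (two : (2 : k) ≠ 0) (t : Fin 5 → k)
    (H : ∀ i j l, i ≠ j → i ≠ l → j ≠ l → (t i = t j ∧ t j = t l) ∨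
      (t i - t j) ^ 2 + (t j - t l) ^ 2 + (t i - t j) * (t j - t l) = 1) (nc : ∃ i j, t i ≠ t j) :
    ∃ ε : k, (ε = 1 ∨ ε = -1) ∧ ((∃ i, ∀ l, l ≠ i → t i - t l = ε) ∨
      ∃ i j, i ≠ j ∧ t i = t j ∧ ∀ l, l ≠ i → l ≠ j → t i - t l = ε) := by
  classical
  obtain ⟨i, j, ij, e⟩ : ∃ i j, i ≠ j ∧ t i = t j := by
    by_contra! hh
    have F := fun i j l a b c => (H i j l a b c).resolve_left fun e => hh i j a e.1
    have a1 := F 0 1 2 (by decide) (by decide) (by decide)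
    have a2 := F 0 1 3 (by decide) (by decide) (by decide)
    have a3 := F 0 2 3 (by decide) (by decide) (by decide)
    have b1 : t 2 + t 3 - t 0 - t 1 = 0 := mul_left_cancel₀ (sub_ne_zero.2 (hh 2 3 (by decide)))
      (by linear_combination a1 - a2)
    have b2 : t 1 + t 3 - t 0 - t 2 = 0 := mul_left_cancel₀ (sub_ne_zero.2 (hh 1 3 (by decide)))
      (by linear_combination a1 - a3)
    exact hh 2 1 (by decide) (mul_left_cancel₀ two (by linear_combination b1 - b2))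
  have s2 : ∀ l, t l ≠ t i → (t l - t i) ^ 2 = 1 := fun l hl => by
    rcases H i j l ij (fun e => hl (by rw [e])) (fun e' => hl (by rw [← e', e])) with a | a
    · exact (hl (by rw [← a.2, e])).elim
    · rw [← e] at a; linear_combination a
  obtain ⟨l0, hl0⟩ : ∃ l, t l ≠ t i := by
    by_contra! hh
    obtain ⟨a, b, c⟩ := nc
    exact c (by rw [hh a, hh b])
  have s3 : ∀ l, t l ≠ t i → t l = t l0 := fun l hl => by
    by_contra hne
    have a := s2 l hl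
    have b := s2 l0 hl0
    have c : t l + t l0 - 2 * t i = 0 := mul_left_cancel₀ (sub_ne_zero.2 hne)
      (by linear_combination a - b)
    rcases H i l0 l (fun e => hl0 (by rw [e])) (fun e => hl (by rw [e]))
      (fun e => hne (by rw [e])) with d | d
    · exact hl0 d.1.symm
    · have : t l = 2 * t i - t l0 := by linear_combination c
      rw [this] at d
      exact two (by linear_combination d - 3 * b)
  have ε1 : t l0 - t i = 1 ∨ t l0 - t i = -1 := sq_one (s2 l0 hl0)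
  have key : ∀ a, ∃ ε : k, (ε = 1 ∨ ε = -1) ∧ ∀ l, decide (t l = t i) ≠ decide (t a = t i) →
      t a - t l = ε := fun a => by
    by_cases ha : t a = t i
    · refine ⟨-(t l0 - t i), by rcases ε1 with e | e <;> simp [e], fun l hl => ?_⟩
      rw [s3 l (by simpa [ha] using hl), ha, neg_sub]
    · refine ⟨t l0 - t i, ε1, fun l hl => ?_⟩
      rw [s3 a ha, show t l = t i by simpa [ha] using hl]
  rcases comb0 (fun l => decide (t l = t i)) ⟨l0, i, by simpa using hl0⟩ with ⟨a, ha⟩ | ⟨a, b, ab, e, ha⟩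
  · obtain ⟨ε, h1, h2⟩ := key a
    exact ⟨ε, h1, Or.inl ⟨a, fun l hl => h2 l (ha l hl)⟩⟩
  · obtain ⟨ε, h1, h2⟩ := key a
    refine ⟨ε, h1, Or.inr ⟨a, b, ab, ?_, fun l h3 h4 => h2 l (ha l h3 h4)⟩⟩
    by_cases ha : t a = t i
    · rw [ha, show t b = t i by simpa [ha] using e]
    · rw [s3 a ha, s3 b (by simpa [ha] using e)]

variable [IsAlgClosed k]

theorem norm_vec (px : Pr B Q ι x c d (-1)) {s t : k} (h0 : s ^ 2 + s * t + t ^ 2 ≠ 0) :
    ∃ n w, Pr B Q ι x n w (-1) ∧ ∀ z, t * Orth.B Q z c - s * Orth.B Q z d = 0 → Orth.B Q z n = 0 := by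
  obtain ⟨l, -, hl⟩ := unit_vec px.cl (a := t • c + (-s) • d) (by
    rw [px.Q_comb]; intro e; exact h0 (by linear_combination e))
  obtain ⟨w, hw⟩ := px.base ((Y ι x).smul_mem l (px.mem_Y.2 ⟨_, _, rfl⟩)) hl
  exact ⟨_, w, hw, fun z e => by
    simp only [map_smul, map_add, smul_eq_mul]; linear_combination l * e⟩

theorem exists_n (px : Pr B Q ι x c d (-1)) (e : om Q a b c d = 0) (s : SS Q a b c d = 1) :
    ∃ n w, Pr B Q ι x n w (-1) ∧ Orth.B Q a n = 0 ∧ Orth.B Q b n = 0 := by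
  by_cases z : Orth.B Q a c ^ 2 + Orth.B Q a c * Orth.B Q a d + Orth.B Q a d ^ 2 = 0
  · obtain ⟨a1, a2, a3⟩ := alg2 e s z
    obtain ⟨n, w, pw, hn⟩ := norm_vec px (a3 ▸ one_ne_zero)
    exact ⟨n, w, pw, hn _ (by simp [a1, a2]), hn _ (by ring)⟩
  · obtain ⟨n, w, pw, hn⟩ := norm_vec px z
    exact ⟨n, w, pw, hn _ (by ring), hn _ (by rw [om] at e; linear_combination -e)⟩

end Cfsg.Agent.H9.A67
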