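import Cfsg.Agent.H9.A67.E2

/-! A quadratic element of order three against a simplex with five vertices. -/

set_option autoImplicit false
set_option linter.unusedSimpArgs false
set_option linter.unusedSectionVars false
set_option linter.unusedVariables false

namespace Cfsg.Agent.H9.A67

open Module Cfsg.Agent.H6.S4
open Cfsg.Agent.H9.Sp (Cl)

universe u

variable {k V W : Type*} [Field k] [AddCommGroup V] [Module k V] [FiniteDimensional k V]
  [AddCommGroup W] [Module k W] [FiniteDimensional k W]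
  {B : V →ₗ[k] V →ₗ[k] k} {Q : QuadraticForm k W} {ι : W →ₗ[k] End k V}
  {G : Type u} [Group G] {P : Subgroup (End k V)ˣ} {π : P →* G} {p : ℕ}
  {g g' x : (End k V)ˣ} {a b c d e n o r u v w y z : W} {q : Fin 5 → W} {U : Submodule k W}
  {i j l m : Fin 5}

/-- compatible point -/
def Cp (Q : QuadraticForm k W) (ι : W →ₗ[k] End k V) (P : Subgroup (End k V)ˣ) (o : W)
    (q : Fin 5 → W) (a : W) : Prop := (∃ l, a = q l) ∨ ∀ l, Ph Q ι P o (a - q l)

/-- `x` is a three-cycle of an extension of the simplex -/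
def Res (Q : QuadraticForm k W) (ι : W →ₗ[k] End k V) (P : Subgroup (End k V)ˣ) (o : W)
    (q : Fin 5 → W) (x : (End k V)ˣ) : Prop :=
  (∃ r, ∀ l, Ph Q ι P o (r - q l)) ∧ ∃ a b c, Cp Q ι P o q a ∧ Cp Q ι P o q b ∧ Cp Q ι P o q c ∧
    Q (a - b) = 1 ∧ Q (b - c) = 1 ∧ x.1 = ι (a - b) * ι (b - c)

set_option synthInstance.maxSize 1000 in
theorem three5 : ∀ i j : Fin 5, i ≠ j → ∃ l m s, i ≠ l ∧ i ≠ m ∧ i ≠ s ∧ j ≠ l ∧ j ≠ m ∧ j ≠ s ∧
    l ≠ m ∧ l ≠ s ∧ m ≠ s := by decide

theorem Y_le {θ : k} (h : Pr B Q ι g a b θ) (ha : a ∈ U) (hb : b ∈ U) : Y ι g ≤ U := fun w hw => by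
  obtain ⟨α, β, rfl⟩ := h.mem_Y.1 hw
  exact U.add_mem (U.smul_mem _ ha) (U.smul_mem _ hb)

theorem ind3 {I : Type*} [DecidableEq I] {q : I → W} (h : Cl B Q ι) (hq : Sx Q ι P o q) {i j l m : I}
    (ij : i ≠ j) (il : i ≠ l) (jl : j ≠ l) (im : i ≠ m) (jm : j ≠ m) (lm : l ≠ m) {α β γ : k}
    (e : α • (q i - q j) + β • (q j - q l) + γ • (q j - q m) = 0) : α = 0 ∧ β = 0 ∧ γ = 0 := by
  have f := fun z => congrArg (Orth.B Q z) e
  have a1 := f (q i - q j)
  have a2 := f (q j - q l)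
  have a3 := f (q j - q m)
  simp only [map_add, map_smul, hq.gram, map_zero, smul_eq_mul] at a1 a2 a3
  simp only [ij, il, jl, im, jm, lm, ij.symm, il.symm, jl.symm, im.symm, jm.symm, lm.symm, if_true,
    if_false] at a1 a2 a3
  have f4 := four_ne h
  exact ⟨mul_left_cancel₀ f4 (by linear_combination 3 * a1 + a2 + a3),
    mul_left_cancel₀ f4 (by linear_combination a1 + 3 * a2 - a3),
    mul_left_cancel₀ f4 (by linear_combination a1 - a2 + 3 * a3)⟩

variable [Fact p.Prime] [CharP k p] [IsAlgClosed k]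

section

variable (h : S2 p B Q ι P π) (h3 : Pair3 P) (hq : Sx Q ι P o q) (hx : x ∈ P)
include h h3 hq hx

section

variable (hU : ∀ i j, q i - q j ∈ U) (hn : ¬ Y ι x ≤ U)
include hU hn

theorem meets (px : Pr B Q ι x c d (-1)) (ij : i ≠ j) (il : i ≠ l) (jl : j ≠ l)
    (e : om Q (q i - q j) (q j - q l) c d ≠ 0) :
    ∃ α β : k, α • (q i - q j) + β • (q j - q l) ≠ 0 ∧ α • (q i - q j) + β • (q j - q l) ∈ Y ι x := by
  obtain ⟨t, ht, pt⟩ := hq.tc5 h.toSt ij il jl
  rcases pr h h3 ht hx pt px with f | f | ⟨-, y, y0, y1, y2⟩ | f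
  · exact (hn (f ▸ Y_le pt (hU _ _) (hU _ _))).elim
  · exact (e (by simp [-map_sub, om, f])).elim
  · obtain ⟨α, β, rfl⟩ := pt.mem_Y.1 y1
    exact ⟨α, β, y0, y2⟩
  · exact (e f.1).elim

theorem edge (px : Pr B Q ι x c d (-1)) (ij : i ≠ j) (il : i ≠ l) (jl : j ≠ l) (im : i ≠ m)
    (jm : j ≠ m) (lm : l ≠ m) (e : om Q (q i - q j) (q j - q l) c d ≠ 0)
    (e' : om Q (q i - q j) (q j - q m) c d ≠ 0) : q i - q j ∈ Y ι x := by
  obtain ⟨α, β, a1, a2⟩ := meets h h3 hq hx hU hn px ij il jl e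
  obtain ⟨γ, δ, b1, b2⟩ := meets h h3 hq hx hU hn px ij im jm e'
  obtain ⟨s, hs⟩ : ∃ s : k, γ • (q i - q j) + δ • (q j - q m) =
      s • (α • (q i - q j) + β • (q j - q l)) := by
    by_contra! hh
    refine hn fun w hw => ?_
    obtain ⟨s, t, rfl⟩ := span2 px.finrank_Y a2 b2 a1 hh hw
    exact U.add_mem (U.smul_mem _ (U.add_mem (U.smul_mem _ (hU _ _)) (U.smul_mem _ (hU _ _))))
      (U.smul_mem _ (U.add_mem (U.smul_mem _ (hU _ _)) (U.smul_mem _ (hU _ _))))
  obtain ⟨-, -, rfl⟩ := ind3 h.cl hq ij il jl im jm lm (α := γ - s * α) (β := -(s * β)) (γ := δ)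
    (by linear_combination (norm := module) hs)
  rw [zero_smul, add_zero] at b1 b2
  exact ((Y ι x).smul_mem_iff (left_ne_zero_of_smul b1)).1 b2

theorem dich (px : Pr B Q ι x c d (-1)) (hA : ∀ i j, i ≠ j → q i - q j ∉ Y ι x) (i j l : Fin 5) :
    om Q (q i - q j) (q j - q l) c d = 0 := by
  by_contra e
  have ij : i ≠ j := by rintro rfl; simp [om] at e
  have jl : j ≠ l := by rintro rfl; simp [om] at e
  have il : i ≠ l := by rintro rfl; exact e (by simp [om]; ring)
  obtain ⟨m, im, jm, lm⟩ := four5 i j l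
  have E := fun {i j l m : Fin 5} a1 a2 a3 a4 a5 a6 a7 =>
    not_not.1 fun a8 => hA i j a1 (edge h h3 hq hx hU hn px (l := l) (m := m) a1 a2 a3 a4 a5 a6 a7 a8)
  have b1 := E ij il jl im jm lm e
  have b2 := E jl ij.symm il.symm jm lm im (by
    rw [show om Q (q j - q l) (q l - q i) c d = om Q (q i - q j) (q j - q l) c d by simp [om]; ring]
    exact e)
  have b3 := E il.symm jl.symm ij lm im jm (by
    rw [show om Q (q l - q i) (q i - q j) c d = om Q (q i - q j) (q j - q l) c d by simp [om]; ring]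
    exact e)
  refine e ?_
  simp only [om, map_sub, LinearMap.sub_apply] at b1 b2 b3 ⊢
  linear_combination b1 + b2 + b3

theorem caseA (px : Pr B Q ι x (q i - q j) w (-1)) (ij : i ≠ j) : Res Q ι P o q x := by
  have cl := h.cl
  have hw : w ∉ U := fun hw => hn (Y_le px (hU _ _) hw)
  have pw : Ph Q ι P o w := (hq i j ij).ext cl px.qb hx px.e
  have s1 : ∀ l, i ≠ l → j ≠ l → Orth.B Q (q j - q l) w = 0 ∨ Orth.B Q (q j - q l) w = 1 :=
    fun l il jl => by
    obtain ⟨t, ht, pt⟩ := hq.tc5 h.toSt ij il jl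
    exact (share h h3 ht hx pt px).resolve_left fun f => hn (f ▸ Y_le pt (hU _ _) (hU _ _))
  have s2 : ∀ l m, i ≠ l → j ≠ l → i ≠ m → j ≠ m →
      Orth.B Q (q j - q l) w = Orth.B Q (q j - q m) w := fun l m il jl im jm => by
    by_contra hne
    have lm : l ≠ m := by rintro rfl; exact hne rfl
    obtain ⟨α, β, a1, a2⟩ := meets h h3 hq hx hU hn px il im lm (by
      rw [om, hq.gram, hq.gram]
      simp only [ij, il.symm, jl.symm, im.symm, jm.symm, if_true, if_false, map_sub,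
        LinearMap.sub_apply] at hne ⊢
      intro e; exact hne (by linear_combination -e))
    obtain ⟨γ, δ, e⟩ := px.mem_Y.1 a2
    have δ0 : δ = 0 := by
      by_contra δ0
      refine hw ((U.smul_mem_iff δ0).1 ?_)
      rw [show δ • w = α • (q i - q l) + β • (q l - q m) - γ • (q i - q j) by rw [e]; abel]
      exact U.sub_mem (U.add_mem (U.smul_mem _ (hU _ _)) (U.smul_mem _ (hU _ _))) (U.smul_mem _ (hU _ _))
    obtain ⟨b1, rfl, rfl⟩ := ind3 cl hq il im lm ij jl.symm jm.symm (α := α - γ) (β := β) (γ := -γ)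
      (by rw [δ0] at e; linear_combination (norm := module) e) |>.imp_right (And.imp_right neg_eq_zero.1)
    exact a1 (by simp [show α = 0 by simpa using b1])
  obtain ⟨l0, il, jl, -⟩ := four5 i j j
  have ab := px.ab
  rcases s1 l0 il jl with e | e
  · have s3 : ∀ l, Ph Q ι P o (q i + w - q l) := fun l => by
      by_cases il' : i = l
      · simpa [il'] using pw
      rw [add_sub_right_comm]
      refine (hq i l il').add h.toSt pw ?_
      by_cases jl' : j = l
      · rw [← jl', ab]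
      have := (s2 l l0 il' jl' il jl).trans e
      simp only [map_sub, LinearMap.sub_apply] at this ab ⊢
      linear_combination this + ab
    exact ⟨⟨_, s3⟩, q j, q i, q i + w, Or.inl ⟨_, rfl⟩, Or.inl ⟨_, rfl⟩, Or.inr s3, (hq j i ij.symm).un,
      by simpa using px.qb, by rw [(prneg px).e]; simp⟩
  · have s3 : ∀ l, Ph Q ι P o (q j - w - q l) := fun l => by
      by_cases jl' : j = l
      · simpa [jl'] using pw.neg h.toSt
      rw [sub_right_comm]
      refine (hq j l jl').sub cl pw ?_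
      by_cases il' : i = l
      · rw [← il', ← neg_sub, map_neg, LinearMap.neg_apply, ab, neg_neg]
      exact (s2 l l0 il' jl' il jl).trans e
    exact ⟨⟨_, s3⟩, q i, q j, q j - w, Or.inl ⟨_, rfl⟩, Or.inl ⟨_, rfl⟩, Or.inr s3, px.qa,
      by simpa using px.qb, by rw [px.e]; simp⟩

end

theorem caseB3 (px : Pr B Q ι x n w (-1)) (hn : ∀ i j, Orth.B Q (q i - q j) n = 0)
    (hi : ∀ l, l ≠ i → Orth.B Q (q i - q l) w = 1) : Res Q ι P o q x := by
  have cl := h.cl
  obtain ⟨l, il, -, -⟩ := four5 i i i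
  obtain ⟨m, im, lm, -⟩ := four5 i l l
  obtain ⟨t, ht, pt⟩ := hq.tc5 h.toSt il im lm
  have e1 : wa ι x⁻¹ (q i - q l) = q i - q l - w := by
    rw [px.inv.act, Orth.B_comm Q w, Orth.B_comm Q n, hn, hi l il.symm]; simp
  have e2 : wa ι x⁻¹ (q l - q m) = q l - q m := by
    have a := hi l il.symm
    have b := hi m im.symm
    simp only [map_sub, LinearMap.sub_apply] at a b
    rw [px.inv.act, Orth.B_comm Q w, Orth.B_comm Q n, hn,
      show Orth.B Q (q l - q m) w = 0 by simp only [map_sub, LinearMap.sub_apply]; linear_combination b - a]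
    simp
  have e3 := prconj pt px.inv.sp
  have e4 := Q_wa cl px.inv.sp (q i - q l)
  rw [e1, pt.qa] at e4
  rw [e1, e2] at e3
  have p1 := (hq l m lm).ext' cl e4 (P.mul_mem (P.mul_mem (P.inv_mem hx) ht) (P.inv_mem (P.inv_mem hx))) e3
  have pw : Ph Q ι P o w := by
    simpa using (hq i l il).sub cl p1 (by
      rw [map_sub, Orth.B_self, pt.qa, hi l il.symm]; norm_num)
  have pn : Ph Q ι P o n := pw.ext' cl px.qa hx px.e
  have pwn := pn.add h.toSt pw px.ab
  have s : ∀ v, Ph Q ι P o v → (∀ l, l ≠ i → Orth.B Q (q i - q l) v = 1) →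
      ∀ l, Ph Q ι P o (q i - v - q l) := fun v hv hv' l => by
    by_cases il' : l = i
    · simpa [il'] using hv.neg h.toSt
    rw [sub_right_comm]
    exact (hq i l (Ne.symm il')).sub cl hv (hv' l il')
  have s1 := s w pw hi
  have s2 := s _ pwn fun l hl => by rw [map_add, hn, hi l hl, zero_add]
  exact ⟨⟨_, s1⟩, q i - (n + w), q i - w, q i, Or.inr s2, Or.inr s1, Or.inl ⟨_, rfl⟩,
    by simpa using px.qa, by simpa using px.qb, by rw [(prneg px).e]; simp⟩

theorem caseB4 (px : Pr B Q ι x n w (-1)) (hn : ∀ i j, Orth.B Q (q i - q j) n = 0) (ij : i ≠ j)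
    (hj : Orth.B Q (q i - q j) w = 0) (hi : ∀ l, l ≠ i → l ≠ j → Orth.B Q (q i - q l) w = 1) : False := by
  have cl := h.cl
  obtain ⟨l, m, s, il, im, is, jl, jm, js, lm, ls, ms⟩ := three5 i j ij
  have w1 := hi l il.symm jl.symm
  have w2 := hi m im.symm jm.symm
  have w3 := hi s is.symm js.symm
  have w4 : Orth.B Q (q j - q l) w = 1 := by
    simp only [map_sub, LinearMap.sub_apply] at w1 hj ⊢; linear_combination w1 - hj
  have w5 : Orth.B Q (q l - q m) w = 0 := by
    simp only [map_sub, LinearMap.sub_apply] at w1 w2 ⊢; linear_combination w2 - w1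
  have w6 : Orth.B Q (q m - q s) w = 0 := by
    simp only [map_sub, LinearMap.sub_apply] at w3 w2 ⊢; linear_combination w3 - w2
  by_cases hp : p = 3
  · obtain ⟨t, ht, pt⟩ := hq.tc5 h.toSt lm ls ms
    exact perp3 h hp ht hx pt px (hn _ _) w5 (hn _ _) w6
  have t3 : (3 : k) ≠ 0 := fun e => hp (eq_of_cast (k := k) Nat.prime_three (by exact_mod_cast e))
  obtain ⟨c0, c1, c2, c3, c4, c5, hc, e⟩ :=
    dep6 cl (q i - q j) (q j - q l) (q l - q m) (q m - q s) w n
  have f := fun z => congrArg (Orth.B Q z) e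
  have a0 := f (q i - q j)
  have a1 := f (q j - q l)
  have a2 := f (q l - q m)
  have a3 := f (q m - q s)
  have a4 := f w
  have a5 := f n
  simp only [map_add, map_smul, hq.gram, map_zero, smul_eq_mul, hn, hj, w4, w5, w6,
    Orth.B_comm Q w (_ - _), Orth.B_comm Q n (_ - _), Orth.B_self, px.qa, px.qb, px.ab, px.inv.ab]
    at a0 a1 a2 a3 a4 a5
  simp only [ij, il, im, is, jl, jm, js, lm, ls, ms, ij.symm, il.symm, im.symm, is.symm, jl.symm,
    jm.symm, js.symm, lm.symm, ls.symm, ms.symm, if_true, if_false] at a0 a1 a2 a3 a4 a5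
  exact hc ⟨mul_left_cancel₀ t3 (by linear_combination 6 * a0 + 9 * a1 + 6 * a2 + 3 * a3 - 6 * a4 - 3 * a5),
    mul_left_cancel₀ t3 (by linear_combination 9 * a0 + 18 * a1 + 12 * a2 + 6 * a3 - 12 * a4 - 6 * a5),
    mul_left_cancel₀ t3 (by linear_combination 6 * a0 + 12 * a1 + 10 * a2 + 5 * a3 - 8 * a4 - 4 * a5),
    mul_left_cancel₀ t3 (by linear_combination 3 * a0 + 6 * a1 + 5 * a2 + 4 * a3 - 4 * a4 - 2 * a5),
    mul_left_cancel₀ t3 (by linear_combination -6 * a0 - 12 * a1 - 8 * a2 - 4 * a3 + 10 * a4 + 5 * a5),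
    mul_left_cancel₀ t3 (by linear_combination -3 * a0 - 6 * a1 - 4 * a2 - 2 * a3 + 5 * a4 + 4 * a5)⟩

theorem caseB2 (px : Pr B Q ι x n w (-1)) (hn : ∀ i j, Orth.B Q (q i - q j) n = 0)
    (hv : ∃ i j, Orth.B Q (q i - q j) w ≠ 0) : Res Q ι P o q x := by
  have cl := h.cl
  obtain ⟨ε, hε, H⟩ := comb cl.two (fun l => Orth.B Q (q l) w) (fun i j l ij il jl => by
    obtain ⟨t, ht, pt⟩ := hq.tc5 h.toSt ij il jl
    rcases pr h h3 ht hx pt px with f | f | ⟨f, -⟩ | ⟨-, f, -⟩
    · obtain ⟨α, β, e⟩ := pt.mem_Y.1 (f ▸ px.a_mem)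
      have a1 : Orth.B Q n n = 0 := by nth_rw 1 [e]; simp [-map_sub, hn]
      rw [Orth.B_self, px.qa, mul_one] at a1
      exact (cl.two a1).elim
    · simp only [map_sub, LinearMap.sub_apply, sub_eq_zero] at f
      exact Or.inl ⟨f.2.1, f.2.2.2⟩
    · simp [-map_sub, om, hn] at f
    · simp only [SS, hn] at f
      simp only [map_sub, LinearMap.sub_apply] at f
      exact Or.inr (by linear_combination f))
    (let ⟨i, j, e⟩ := hv; ⟨i, j, by simpa [sub_eq_zero] using e⟩)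
  have hn' : ∀ i j, Orth.B Q (q i - q j) (-n) = 0 := fun i j => by rw [map_neg, hn, neg_zero]
  rcases hε with rfl | rfl <;> rcases H with ⟨i, H⟩ | ⟨i, j, ij, H1, H⟩
  · exact caseB3 h h3 hq hx px hn (i := i) fun l hl => by simpa using H l hl
  · exact (caseB4 h h3 hq hx px hn ij (by simp [H1]) fun l a b => by simpa using H l a b).elim
  · exact caseB3 h h3 hq hx (prneg px) hn' (i := i) fun l hl => by
      simp only [map_neg, map_sub, LinearMap.sub_apply]; linear_combination -H l hl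
  · exact (caseB4 h h3 hq hx (prneg px) hn' ij (by simp [H1]) fun l a b => by
      simp only [map_neg, map_sub, LinearMap.sub_apply]; linear_combination -H l a b).elim

theorem res (hU : ∀ i j, q i - q j ∈ U) (hn : ¬ Y ι x ≤ U) (px : Pr B Q ι x c d (-1))
    (hv : ∃ i j, ¬ (Orth.B Q (q i - q j) c = 0 ∧ Orth.B Q (q i - q j) d = 0)) : Res Q ι P o q x := by
  by_cases hA : ∃ i j, i ≠ j ∧ q i - q j ∈ Y ι x
  · obtain ⟨i, j, ij, e⟩ := hA
    obtain ⟨w, pw⟩ := px.base e (hq i j ij).un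
    exact caseA h h3 hq hx hU hn pw ij
  push Not at hA
  have D := dich h h3 hq hx hU hn px hA
  obtain ⟨i, j, e⟩ := hv
  have ij : i ≠ j := by rintro rfl; simp at e
  obtain ⟨l, il, jl, -⟩ := four5 i j j
  obtain ⟨t, ht, pt⟩ := hq.tc5 h.toSt ij il jl
  obtain ⟨n, w, pw, hw⟩ := norm_vec px (s := Orth.B Q (q i - q j) c) (t := Orth.B Q (q i - q j) d)
    fun z => by
    rcases pr h h3 ht hx pt px with f | f | ⟨f, -⟩ | ⟨f, f', -⟩
    · exact hn (f ▸ Y_le pt (hU _ _) (hU _ _))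
    · exact e ⟨f.1, f.2.1⟩
    · simp [D] at f
    · exact e ⟨(alg2 f f' z).1, (alg2 f f' z).2.1⟩
  have n1 : ∀ m, Orth.B Q (q j - q m) n = 0 := fun m => hw _ (by
    have := D i j m
    rw [om] at this
    linear_combination -this)
  have n2 : ∀ a b, Orth.B Q (q a - q b) n = 0 := fun a b => by
    have a1 := n1 a
    have a2 := n1 b
    simp only [map_sub, LinearMap.sub_apply] at a1 a2 ⊢
    linear_combination a2 - a1
  refine caseB2 h h3 hq hx pw n2 ⟨i, j, fun f => e ?_⟩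
  obtain ⟨α, β, e1⟩ := pw.mem_Y.1 px.a_mem
  obtain ⟨γ, δ, e2⟩ := pw.mem_Y.1 px.b_mem
  rw [e1, e2]
  simp [-map_sub, n2, f]

end

end Cfsg.Agent.H9.A67
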