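import Cfsg.Agent.H9.A67.E3

/-! Maximal simplices: all quadratic elements of order three are three-cycles. -/

set_option autoImplicit false
set_option linter.unusedSimpArgs false
set_option linter.unusedSectionVars false
set_option linter.unusedVariables false

namespace Cfsg.Agent.H9.A67

open Module Cfsg.Agent.H6.S4
open Cfsg.Agent.H9.Sp (Cl)

universe u

variable {k V W : Type*} [Field k] [AddCommGroup V] [Module k V] [FiniteDimensional k V]
  [AddCommGroup W] [Module k W] [FiniteDimensional k W]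
  {B : V →ₗ[k] V →ₗ[k] k} {Q : QuadraticForm k W} {ι : W →ₗ[k] End k V}
  {G : Type u} [Group G] {P : Subgroup (End k V)ˣ} {π : P →* G} {p : ℕ}
  {g g' x : (End k V)ˣ} {a b c d e n o r u v w y z : W}

theorem chain (h : St B Q ι P π) (hg : g ∈ P) (hg' : g' ∈ P) (p1 : Pr B Q ι g a b (-1))
    (p2 : Pr B Q ι g' c d (-1)) (e1 : Orth.B Q a c = 0) (e2 : Orth.B Q a d = 0)
    (e3 : Orth.B Q b c = -1) (e4 : Orth.B Q b d = 0) : ∃ q : Fin 5 → W, Sx Q ι P a q := by
  have cl := h.cl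
  have A : Ph Q ι P a a := Ph.self cl p1.qa
  have A2 : Ph Q ι P a b := A.ext cl p1.qb hg p1.e
  have f1 : wa ι g' a = a := by rw [p2.act, Orth.B_comm Q c, Orth.B_comm Q d, e1, e2]; simp
  have f2 : wa ι g' b = b + c := by rw [p2.act, Orth.B_comm Q c, Orth.B_comm Q d, e3, e4]; simp
  have f3 := prconj p1 p2.sp
  have f4 := Q_wa cl p2.sp b
  rw [f2, p1.qb] at f4
  rw [f1, f2] at f3
  have A23 := A.ext cl f4 (P.mul_mem (P.mul_mem hg' hg) (P.inv_mem hg')) f3
  have A3 : Ph Q ι P a c := by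
    simpa using A23.sub cl A2 (by
      rw [map_add, LinearMap.add_apply, Orth.B_self, p1.qb, Orth.B_comm, e3]; norm_num)
  have A4 := A3.ext cl p2.qb hg' p2.e
  have A12 := A.add h A2 p1.ab
  have A34 := A3.add h A4 p2.ab
  have A123 := A12.add h A3 (by simp [e1, e3])
  have A234 := A23.add h A4 (by simp [e4, p2.ab])
  have A1234 := A123.add h A4 (by simp [e2, e4, p2.ab])
  refine ⟨_, ((((show Sx Q ι P a (Fin.elim0 : Fin 0 → W) from fun i => i.elim0).cons h (r := 0)
    fun l => l.elim0).cons h (r := a) ?_).cons h (r := a + b) ?_).cons h (r := a + b + c) ?_ |>.cons h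
    (r := a + b + c + d) ?_⟩ <;>
  simp only [Fin.forall_fin_succ, Fin.cons_zero, Fin.cons_succ, IsEmpty.forall_iff, and_true]
  · simpa using A
  · exact ⟨by simpa using A2, by simpa using A12⟩
  · exact ⟨by simpa using A3, by simpa [add_assoc] using A23, by simpa using A123⟩
  · exact ⟨by simpa using A4, by simpa [add_assoc] using A34, by simpa [add_assoc] using A234,
      by simpa using A1234⟩

theorem span6 {q : Fin 6 → W} (h : Cl B Q ι) (t3 : (3 : k) ≠ 0) (hq : Sx Q ι P o q)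
    (hz : ∀ i j, Orth.B Q (q i - q j) z = 0) : z = 0 := by
  obtain ⟨c0, c1, c2, c3, c4, c5, hc, e⟩ :=
    dep6 h (q 0 - q 1) (q 0 - q 2) (q 0 - q 3) (q 0 - q 4) (q 0 - q 5) z
  have f := fun z => congrArg (Orth.B Q z) e
  have a0 := f (q 0 - q 1)
  have a1 := f (q 0 - q 2)
  have a2 := f (q 0 - q 3)
  have a3 := f (q 0 - q 4)
  have a4 := f (q 0 - q 5)
  simp only [map_add, map_smul, hq.gram, map_zero, smul_eq_mul, hz] at a0 a1 a2 a3 a4
  simp only [Fin.reduceEq, if_true, if_false] at a0 a1 a2 a3 a4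
  have t6 : (2 * 3 : k) ≠ 0 := mul_ne_zero h.two t3
  obtain rfl : c0 = 0 := mul_left_cancel₀ t6 (by linear_combination 5 * a0 - a1 - a2 - a3 - a4)
  obtain rfl : c1 = 0 := mul_left_cancel₀ t6 (by linear_combination 5 * a1 - a0 - a2 - a3 - a4)
  obtain rfl : c2 = 0 := mul_left_cancel₀ t6 (by linear_combination 5 * a2 - a1 - a0 - a3 - a4)
  obtain rfl : c3 = 0 := mul_left_cancel₀ t6 (by linear_combination 5 * a3 - a1 - a2 - a0 - a4)
  obtain rfl : c4 = 0 := mul_left_cancel₀ t6 (by linear_combination 5 * a4 - a1 - a2 - a3 - a0)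
  simp only [zero_smul, zero_add, true_and] at e hc
  exact (smul_eq_zero.1 e).resolve_left hc

theorem seven {q : Fin 7 → W} (h : Cl B Q ι) (hq : Sx Q ι P o q) :
    (7 : k) = 0 ∧ ¬ ∃ r, ∀ l, Ph Q ι P o (r - q l) := by
  obtain ⟨c0, c1, c2, c3, c4, c5, hc, e⟩ :=
    dep6 h (q 0 - q 1) (q 0 - q 2) (q 0 - q 3) (q 0 - q 4) (q 0 - q 5) (q 0 - q 6)
  have f := fun z => congrArg (Orth.B Q z) e
  have a0 := f (q 0 - q 1)
  have a1 := f (q 0 - q 2)
  have a2 := f (q 0 - q 3)
  have a3 := f (q 0 - q 4)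
  have a4 := f (q 0 - q 5)
  have a5 := f (q 0 - q 6)
  simp only [map_add, map_smul, hq.gram, map_zero, smul_eq_mul] at a0 a1 a2 a3 a4 a5
  simp only [Fin.reduceEq, if_true, if_false] at a0 a1 a2 a3 a4 a5
  have s0 : c0 + c1 + c2 + c3 + c4 + c5 ≠ 0 := fun s => hc
    ⟨by linear_combination a0 - s, by linear_combination a1 - s, by linear_combination a2 - s,
      by linear_combination a3 - s, by linear_combination a4 - s, by linear_combination a5 - s⟩
  refine ⟨mul_right_cancel₀ s0 (by linear_combination a0 + a1 + a2 + a3 + a4 + a5), fun ⟨r, hr⟩ => s0 ?_⟩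
  have b := f (r - q 0)
  simp only [map_add, map_smul, pol, map_zero, smul_eq_mul, hq.qq, (hr _).un] at b
  simp only [Fin.reduceEq, if_true, if_false] at b
  linear_combination -b

variable [Fact p.Prime] [CharP k p] [IsAlgClosed k]

theorem x3pr (h : S2 p B Q ι P π) (hx : X3 P x) : ∃ a b, Pr B Q ι x a b (-1) :=
  h.exists_pr h.tv hx.1 hx.2.1 hx.2.2 (hx.ne_neg h.cl)

theorem step1 (h : S2 p B Q ι P π) (hg : X3 P g) (hg' : X3 P g')
    (e : T (g * g') * T (g * g') = T (g * g') + 1) (n : ∀ s : k, T (g * g') ≠ s • 1) :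
    ∃ (o : W) (q : Fin 5 → W), Sx Q ι P o q := by
  obtain ⟨a, b, p1⟩ := x3pr h hg
  obtain ⟨c, d, p2⟩ := x3pr h hg'
  obtain ⟨m, w, pw, a1, a2⟩ := exists_n p2 (T_nat p1 p2 e n).1 (T_nat p1 p2 e n).2
  obtain ⟨m', w', pw', a3, a4⟩ := exists_n p1 (a := m) (b := w)
    (by rw [← (T_nat p1 pw e n).1]; simp only [om, Orth.B_comm Q m, Orth.B_comm Q w]; ring)
    (by rw [← (T_nat p1 pw e n).2]; simp only [SS, Orth.B_comm Q m, Orth.B_comm Q w]; ring)
  have a5 : Orth.B Q w' m = 0 := by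
    obtain ⟨α, β, e1⟩ := p1.mem_Y.1 pw'.b_mem
    simp [e1, a1, a2]
  rw [Orth.B_comm] at a3 a4
  have a6 := (T_nat pw' pw e n).2
  simp only [SS, a3, a4, a5] at a6
  rcases sq_one (show Orth.B Q w' w ^ 2 = 1 by linear_combination a6) with a7 | a7
  · exact ⟨_, chain h.toSt hg.1 (P.inv_mem hg'.1) pw' (prneg pw.inv) (by simp [a4]) (by simp [a3])
      (by simp [a7]) (by simp [a5])⟩
  · exact ⟨_, chain h.toSt hg.1 (P.inv_mem hg'.1) pw' pw.inv a4 a3 a7 a5⟩

theorem step3 {q : Fin 5 → W} (h : S2 p B Q ι P π) (h3 : Pair3 P) (hg : X3 P g)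
    (hq : Sx Q ι P o q) : ∃ r, ∀ l, Ph Q ι P o (r - q l) := by
  by_contra hh
  set U := Submodule.span k (Set.range fun l : Fin 4 => q 0 - q l.succ)
  have u0 : ∀ l, q 0 - q l ∈ U := fun l => by
    induction l using Fin.cases with
    | zero => simp
    | succ l => exact Submodule.subset_span ⟨l, rfl⟩
  have hU : ∀ i j, q i - q j ∈ U := fun i j => by simpa using U.sub_mem (u0 j) (u0 i)
  rcases h.irrWX (X := {x | X3 P x}) (fun x hx => hx.1) (fun g hg x hx => X3.conj hx hg) hg hg.2.2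
    (hg.ne_neg h.cl) U (fun x hx w hw => by
      obtain ⟨c, d, px⟩ := x3pr h hx
      by_cases hn : Y ι x ≤ U
      · simpa using U.add_mem (hn (sub_mem_Y x w)) hw
      by_cases hv : ∃ i j, ¬ (Orth.B Q (q i - q j) c = 0 ∧ Orth.B Q (q i - q j) d = 0)
      · exact (hh (res h h3 hq hx.1 hU hn px hv).1).elim
      push Not at hv
      have f : ∀ z, (∀ i j, Orth.B Q (q i - q j) z = 0) → Orth.B Q z w = 0 := fun z hz =>
        Orth.mem_perp'.1 (Orth.mem_perp_span.2 (by rintro _ ⟨l, rfl⟩; exact hz _ _)) w hw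
      rwa [px.fix.2 ⟨f c fun i j => (hv i j).1, f d fun i j => (hv i j).2⟩]) with e | e
  · have := (hq 0 1 (by decide)).un
    rw [show q 0 - q 1 = 0 from (Submodule.mem_bot k).1 (e ▸ hU 0 1)] at this
    simp at this
  · have := finrank_range_le_card (R := k) fun l : Fin 4 => q 0 - q l.succ
    rw [Set.finrank, show Submodule.span k _ = ⊤ from e, finrank_top, h.cl.dim] at this
    simp at this

theorem six3 {q : Fin 6 → W} (h : S2 p B Q ι P π) (hq : Sx Q ι P o q) : p ≠ 3 := fun hp => by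
  obtain ⟨t, ht, pt⟩ := hq.tc h.toSt (i := 0) (j := 1) (l := 2) (m := 3) (by decide) (by decide)
    (by decide) (by decide) (by decide) (by decide)
  obtain ⟨t', ht', pt'⟩ := hq.tc h.toSt (i := 3) (j := 4) (l := 5) (m := 0) (by decide) (by decide)
    (by decide) (by decide) (by decide) (by decide)
  refine perp3 h hp ht ht' pt pt' ?_ ?_ ?_ ?_ <;> rw [hq.gram] <;> simp

theorem two_ext {s : Fin 5 → W} (h : S2 p B Q ι P π) (h3 : Pair3 P) (hs : Sx Q ι P o s)
    (ha : ∀ l, Ph Q ι P o (a - s l)) (hr : ∀ l, Ph Q ι P o (r - s l)) :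
    a = r ∨ Ph Q ι P o (a - r) := by
  have cl := h.cl
  have qa := fun l => (ha l).un
  have qr := fun l => (hr l).un
  have qa' := fun l => ((ha l).symm h.toSt).un
  have qr' := fun l => ((hr l).symm h.toSt).un
  have key : ∀ a, (∀ l, Ph Q ι P o (a - s l)) → ∃ t ∈ P, Pr B Q ι t (s 0 - s 1) (s 1 - a) (-1) :=
    fun a ha => (hs.cons h.toSt ha).tc h.toSt (i := 1) (j := 2) (l := 0) (m := 3) (by decide)
      (by decide) (by decide) (by decide) (by decide) (by decide)
  obtain ⟨t, ht, pt⟩ := key a ha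
  obtain ⟨t', ht', pt'⟩ := key r hr
  rcases share h h3 ht ht' pt pt' with f | f | f
  · left
    obtain ⟨α, β, e⟩ := pt.mem_Y.1 (f ▸ pt'.b_mem)
    have a1 := congrArg (Orth.B Q (s 2 - s 1)) e
    have a2 := congrArg (Orth.B Q (s 0 - s 1)) e
    simp only [map_add, map_smul, pol, smul_eq_mul, hs.qq, qa', qr'] at a1 a2
    simp only [Fin.reduceEq, if_true, if_false] at a1 a2
    obtain rfl : α = 0 := by linear_combination a1 - a2
    obtain rfl : β = 1 := by linear_combination a1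
    simpa using e.symm
  · exfalso
    have q1 : Q (a - r) = 2 := by
      rw [pol, qr', qa, sub_self, map_zero] at f; linear_combination -f
    have q2 : Q (r - a) = 2 := by rw [← neg_sub, Orth.Q_neg, q1]
    obtain ⟨c0, c1, c2, c3, c4, c5, hc, e⟩ :=
      dep6 cl (s 1 - s 0) (s 1 - s 2) (s 1 - s 3) (s 1 - s 4) (s 1 - a) (s 1 - r)
    have f := fun z => congrArg (Orth.B Q z) e
    have a0 := f (s 1 - s 0)
    have a1 := f (s 1 - s 2)
    have a2 := f (s 1 - s 3)
    have a3 := f (s 1 - s 4)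
    have a4 := f (s 1 - a)
    have a5 := f (s 1 - r)
    simp only [map_add, map_smul, pol, smul_eq_mul, hs.qq, qa, qr, qa', qr', q1, q2, sub_self a,
      sub_self r, map_zero] at a0 a1 a2 a3 a4 a5
    simp only [Fin.reduceEq, if_true, if_false] at a0 a1 a2 a3 a4 a5
    have f4 := four_ne cl
    exact hc ⟨mul_left_cancel₀ f4 (by linear_combination 4 * a0 - 2 * a4 - 2 * a5),
      mul_left_cancel₀ f4 (by linear_combination 4 * a1 - 2 * a4 - 2 * a5),
      mul_left_cancel₀ f4 (by linear_combination 4 * a2 - 2 * a4 - 2 * a5),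
      mul_left_cancel₀ f4 (by linear_combination 4 * a3 - 2 * a4 - 2 * a5),
      mul_left_cancel₀ f4 (by linear_combination -2 * (a0 + a1 + a2 + a3) + 6 * a4 + 4 * a5),
      mul_left_cancel₀ f4 (by linear_combination -2 * (a0 + a1 + a2 + a3) + 4 * a4 + 6 * a5)⟩
  · right
    simpa using ((hr 1).symm h.toSt).sub cl ((ha 1).symm h.toSt) (by rw [Orth.B_comm, f])

theorem cyc {I : Type*} {q : I → W} (h : S2 p B Q ι P π) (h3 : Pair3 P) (hq : Sx Q ι P o q)
    {f : Fin 6 → I} (hf : Function.Injective f) (hm : ¬ ∃ r, ∀ l, Ph Q ι P o (r - q l))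
    (hx : X3 P x) : ∃ i j l, i ≠ j ∧ j ≠ l ∧ x.1 = ι (q i - q j) * ι (q j - q l) := by
  have cl := h.cl
  have hs := hq.comp hf
  have t3 : (3 : k) ≠ 0 := fun e => six3 h hs (eq_of_cast (k := k) Nat.prime_three (by exact_mod_cast e))
  obtain ⟨c, d, px⟩ := x3pr h hx
  set s := q ∘ f
  obtain ⟨j, hj⟩ : ∃ j, Orth.B Q (∑ l, (s j - s l)) c ≠ 0 := by
    by_contra! hh
    refine px.a0 (span6 cl t3 hs fun i j => mul_left_cancel₀ (mul_ne_zero cl.two t3) ?_)
    have a1 := hh i
    have a2 := hh j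
    simp only [Fin.sum_univ_six, map_add, map_sub, LinearMap.add_apply, LinearMap.sub_apply] at a1 a2 ⊢
    linear_combination a1 - a2
  have hs' := hs.comp (Fin.succAbove_right_injective (p := j))
  set s' := s ∘ j.succAbove
  have key : ∀ z, (∀ m, Orth.B Q (s' m - s' 0) z = 0) → Orth.B Q (s j - s' 0) z = 0 → z = 0 :=
    fun z h1 h2 => by
    have h4 : ∀ i, Orth.B Q (s i - s' 0) z = 0 := fun i => by
      rcases Fin.eq_self_or_eq_succAbove j i with rfl | ⟨m, rfl⟩
      exacts [h2, h1 m]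
    refine span6 cl t3 hs fun i l => ?_
    have a1 := h4 i
    have a2 := h4 l
    simp only [map_sub, LinearMap.sub_apply] at a1 a2 ⊢
    linear_combination a1 - a2
  obtain ⟨-, a, b, c, ha, hb, hc, q1, q2, e⟩ := res h h3 hs' hx.1
    (U := LinearMap.ker (Orth.B Q (∑ l, (s j - s l)))) (fun a b => by
      simp only [LinearMap.mem_ker, map_sum, LinearMap.sum_apply, s', Function.comp_apply, hs.gram]
      simp [Finset.sum_add_distrib, (Fin.succAbove_ne j _).symm])
    (fun e => hj (e px.a_mem)) px (by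
      by_contra! hh
      have e := key (Orth.B Q (s j - s' 0) d • c - Orth.B Q (s j - s' 0) c • d)
        (fun m => by rw [map_sub, map_smul, map_smul, (hh m 0).1, (hh m 0).2]; simp)
        (by rw [map_sub, map_smul, map_smul, smul_eq_mul, smul_eq_mul]; ring)
      have e2 := indep2 px.a0 px.ind (c := Orth.B Q (s j - s' 0) d) (d := -Orth.B Q (s j - s' 0) c)
        (c' := 0) (d' := 0) (by rw [neg_smul, ← sub_eq_add_neg, e]; simp)
      exact px.a0 (key c (fun m => (hh m 0).1) (neg_eq_zero.1 e2.2)))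
  have mem : ∀ a, Cp Q ι P o s' a → ∃ i, a = q i := by
    rintro a (⟨l, rfl⟩ | ha)
    · exact ⟨_, rfl⟩
    obtain ⟨l, hl⟩ : ∃ l, ¬ Ph Q ι P o (a - q l) := by
      by_contra! hh; exact hm ⟨a, hh⟩
    exact ⟨l, (two_ext h h3 hs' ha fun m => hq l _ fun e => hl (e ▸ ha m)).resolve_right hl⟩
  obtain ⟨i, rfl⟩ := mem a ha
  obtain ⟨j, rfl⟩ := mem b hb
  obtain ⟨l, rfl⟩ := mem c hc
  exact ⟨i, j, l, by rintro rfl; simp at q1, by rintro rfl; simp at q2, e⟩

end Cfsg.Agent.H9.A67
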